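import Mathlib
import Cfsg.Agent.Lib.Cores
import Cfsg.Agent.H628.AbelAutGen

/-!
# Groups with abelian Sylow 2-subgroups: commutators of automorphisms centralizing a Sylow 2-subgroup

* `odd_part` : a group with a central 2-subgroup of odd index is a direct product;
* `center_quot`, `core_quot` : if `O(M) = 1` and `M` has abelian Sylow 2-subgroups then `Z(M/Z(M)) = 1 = O(M/Z(M))`;
* `mod_center` : `M` normal in `G`, `O(M) = 1`, `P` an abelian Sylow 2-subgroup of `M`; `s` a 2-element and `x` an element,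
  both centralizing `P`; then `[x, s]` centralizes `M / Z(M)`;
* `centralizes` : if `[x, s]` has odd order then it centralizes `M`.
-/

set_option autoImplicit false

namespace Cfsg.Agent.H997.ScPairCen

open Subgroup

theorem eq_one_of_odd {R : Type*} [Group R] {z : R} {k n : ℕ} (hk : z ^ 2 ^ k = 1) (hn : Odd n) (h : z ^ n = 1) :
    z = 1 := by
  have h1 : orderOf z ∣ Nat.gcd (2 ^ k) n :=
    Nat.dvd_gcd (orderOf_dvd_of_pow_eq_one hk) (orderOf_dvd_of_pow_eq_one h)
  have h2 : Nat.gcd (2 ^ k) n = 1 := Nat.Coprime.pow_left k (Nat.coprime_two_left.2 hn)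
  rw [h2, Nat.dvd_one, orderOf_eq_one_iff] at h1
  exact h1

/-- An element which commutes with the 2-elements and the elements of odd order is central. -/
theorem commute_of_parts {R : Type*} [Group R] [Finite R] {z g : R} (h2 : ∀ y ∈ zpowers g, (∃ k, y ^ 2 ^ k = 1) → z * y = y * z)
    (ho : ∀ y ∈ zpowers g, Odd (orderOf y) → z * y = y * z) : z * g = g * z := by
  obtain ⟨k, m, hm, hkm⟩ := Nat.exists_eq_two_pow_mul_odd (orderOf_pos g).ne'
  have h3 : z * g ^ m = g ^ m * z := h2 _ (pow_mem (mem_zpowers g) m) ⟨k, by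
    rw [← pow_mul, mul_comm, ← hkm, pow_orderOf_eq_one]⟩
  have h4 : z * g ^ 2 ^ k = g ^ 2 ^ k * z := ho _ (pow_mem (mem_zpowers g) _) (by
    have h5 : (g ^ 2 ^ k) ^ m = 1 := by rw [← pow_mul, ← hkm, pow_orderOf_eq_one]
    exact Odd.of_dvd_nat hm (orderOf_dvd_of_pow_eq_one h5))
  have hc : IsCoprime ((2 ^ k : ℕ) : ℤ) (m : ℤ) := by
    rw [Nat.isCoprime_iff_coprime]
    exact Nat.Coprime.pow_left k (Nat.coprime_two_left.2 hm)
  obtain ⟨a, b, hab⟩ := hc
  have h5 : g = (g ^ 2 ^ k) ^ a * (g ^ m) ^ b := by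
    rw [← zpow_natCast, ← zpow_natCast, ← zpow_mul, ← zpow_mul, ← zpow_add, mul_comm _ a, mul_comm _ b, hab, zpow_one]
  have c1 : Commute z (g ^ 2 ^ k) := h4
  have c2 : Commute z (g ^ m) := h3
  have c3 := (c1.zpow_right a).mul_right (c2.zpow_right b)
  rw [← h5] at c3
  exact c3

/-- a group with a central 2-subgroup of odd index -/
theorem odd_part {R : Type*} [Group R] [Finite R] (Z : Subgroup R) (hZ : Z ≤ center R) (hZ2 : IsPGroup 2 Z)
    (hodd : Odd Z.index) : ∃ X : Subgroup R, Odd (Nat.card X) ∧ (∀ x, x ∈ X ↔ Odd (orderOf x)) ∧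
      ∀ r, ∃ z ∈ Z, ∃ x ∈ X, r = z * x := by
  have h2 : Fact (Nat.Prime 2) := ⟨Nat.prime_two⟩
  have hZc : ∀ z ∈ Z, ∀ g : R, g * z = z * g := fun z hz => mem_center_iff.1 (hZ hz)
  have hn : Z.Normal := ⟨fun x hx g => by rw [hZc x hx g, mul_inv_cancel_right]; exact hx⟩
  obtain ⟨n, hn⟩ := IsPGroup.iff_card.1 hZ2
  have hcop : (Nat.card Z).Coprime Z.index := by
    rw [hn]; exact Nat.Coprime.pow_left n (Nat.coprime_two_left.2 hodd)
  obtain ⟨X, hX⟩ := Subgroup.exists_right_complement'_of_coprime hcop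
  have hXodd : Odd (Nat.card X) := by
    rw [← hX.symm.index_eq_card]; exact hodd
  have hdec : ∀ r, ∃ z ∈ Z, ∃ x ∈ X, r = z * x := by
    intro r
    have h1 : r ∈ Z ⊔ X := by rw [hX.sup_eq_top]; exact mem_top r
    obtain ⟨z, hz, x, hx, h3⟩ := mem_sup_of_normal_left.1 h1
    exact ⟨z, hz, x, hx, h3.symm⟩
  refine ⟨X, hXodd, fun x => ⟨fun hx => ?_, fun hx => ?_⟩, hdec⟩
  · exact Odd.of_dvd_nat hXodd (Subgroup.orderOf_dvd_natCard X hx)
  · obtain ⟨z, hz, y, hy, rfl⟩ := hdec x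
    have hc : Commute z y := (hZc z hz y).symm
    have h3 := pow_orderOf_eq_one (z * y)
    rw [hc.mul_pow] at h3
    have h4 : z ^ orderOf (z * y) ∈ X := by
      rw [eq_inv_of_mul_eq_one_left h3]
      exact inv_mem (pow_mem hy _)
    have h5 : z ^ orderOf (z * y) = 1 := by
      have h6 : z ^ orderOf (z * y) ∈ Z ⊓ X := ⟨pow_mem hz _, h4⟩
      rw [hX.disjoint.eq_bot, mem_bot] at h6
      exact h6
    obtain ⟨k, hk⟩ := hZ2 ⟨z, hz⟩
    have h7 : z = 1 := eq_one_of_odd (k := k) (congrArg Subtype.val hk) hx h5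
    rw [h7, one_mul]
    exact hy

section

variable {M : Type*} [Group M] [Finite M] (hO : ∀ N : Subgroup M, N.Normal → Odd (Nat.card N) → N = ⊥)

include hO

theorem pow_of_central {z : M} (hz : z ∈ center M) : ∃ k, z ^ 2 ^ k = 1 := by
  obtain ⟨k, m, hm, hkm⟩ := Nat.exists_eq_two_pow_mul_odd (orderOf_pos z).ne'
  refine ⟨k, ?_⟩
  have h5 : (z ^ 2 ^ k) ^ m = 1 := by rw [← pow_mul, ← hkm, pow_orderOf_eq_one]
  have h6 : zpowers (z ^ 2 ^ k) = ⊥ := by
    refine hO _ ⟨fun x hx g => ?_⟩ ?_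
    · have h7 : zpowers (z ^ 2 ^ k) ≤ center M := by
        rw [zpowers_le]; exact pow_mem hz _
      rw [mem_center_iff.1 (h7 hx) g, mul_inv_cancel_right]
      exact hx
    · rw [Nat.card_zpowers]
      exact Odd.of_dvd_nat hm (orderOf_dvd_of_pow_eq_one h5)
  rwa [zpowers_eq_bot] at h6

theorem isPGroup_center : IsPGroup 2 (center M) := fun ⟨z, hz⟩ => by
  obtain ⟨k, hk⟩ := pow_of_central hO hz
  exact ⟨k, Subtype.ext hk⟩

/-- `Z(M / Z(M)) = 1`. -/
theorem center_quot (P : Sylow 2 M) (hP : ∀ x ∈ (P : Subgroup M), ∀ y ∈ (P : Subgroup M), x * y = y * x) :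
    center (M ⧸ center M) = ⊥ := by
  have h2 : Fact (Nat.Prime 2) := ⟨Nat.prime_two⟩
  rw [eq_bot_iff]
  intro q hq
  obtain ⟨z₀, rfl⟩ := QuotientGroup.mk'_surjective (center M) q
  set Z₂ := (center (M ⧸ center M)).comap (QuotientGroup.mk' (center M)) with hZ₂
  have hcom : ∀ z ∈ Z₂, ∀ g : M, z * g * z⁻¹ * g⁻¹ ∈ center M := by
    intro z hz g
    have h1 := mem_center_iff.1 (mem_comap.1 hz) (QuotientGroup.mk' (center M) g)
    rw [← QuotientGroup.ker_mk' (center M), MonoidHom.mem_ker]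
    simp only [map_mul, map_inv]
    rw [← h1]; group
  -- powers
  have hodd : ∀ z ∈ Z₂, ∀ g : M, ∀ n : ℕ, Odd n → z ^ n = 1 → z * g = g * z := by
    intro z hz g n hn hzn
    have h1 := hcom z hz g
    set u := z * g * z⁻¹ * g⁻¹ with hu
    obtain ⟨k, hk⟩ := pow_of_central hO h1
    have h3 : g * z * g⁻¹ = u⁻¹ * z := by rw [hu]; group
    have hc : Commute u⁻¹ z := (mem_center_iff.1 (inv_mem h1) z).symm
    have h4 : (g * z * g⁻¹) ^ n = 1 := by rw [conj_pow, hzn, mul_one, mul_inv_cancel]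
    rw [h3, hc.mul_pow, hzn, mul_one] at h4
    have h5 : u⁻¹ = 1 := eq_one_of_odd (k := k) (by rw [inv_pow, hk, inv_one]) hn h4
    rw [inv_eq_one] at h5
    rw [hu, mul_inv_eq_one, mul_inv_eq_iff_eq_mul] at h5
    exact h5
  have hodd' : ∀ z ∈ Z₂, ∀ g : M, ∀ n : ℕ, Odd n → g ^ n = 1 → z * g = g * z := by
    intro z hz g n hn hgn
    have h1 := hcom z hz g
    set u := z * g * z⁻¹ * g⁻¹ with hu
    obtain ⟨k, hk⟩ := pow_of_central hO h1
    have h3 : z * g * z⁻¹ = u * g := by rw [hu]; group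
    have hc : Commute u g := (mem_center_iff.1 h1 g).symm
    have h4 : (z * g * z⁻¹) ^ n = 1 := by rw [conj_pow, hgn, mul_one, mul_inv_cancel]
    rw [h3, hc.mul_pow, hgn, mul_one] at h4
    have h5 : u = 1 := eq_one_of_odd hk hn h4
    rw [hu, mul_inv_eq_one, mul_inv_eq_iff_eq_mul] at h5
    exact h5
  have hp : IsPGroup 2 Z₂ := by
    rintro ⟨z, hz⟩
    obtain ⟨k, m, hm, hkm⟩ := Nat.exists_eq_two_pow_mul_odd (orderOf_pos z).ne'
    refine ⟨k, Subtype.ext ?_⟩
    show z ^ 2 ^ k = 1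
    have h5 : (z ^ 2 ^ k) ^ m = 1 := by rw [← pow_mul, ← hkm, pow_orderOf_eq_one]
    have h6 : z ^ 2 ^ k ∈ center M := by
      rw [mem_center_iff]
      intro g
      exact (hodd _ (pow_mem hz _) g m hm h5).symm
    obtain ⟨j, hj⟩ := pow_of_central hO h6
    exact eq_one_of_odd hj hm h5
  have hn : Z₂.Normal := inferInstance
  have hle : Z₂ ≤ Cfsg.pCore 2 M := Cfsg.Agent.Lib.Cores.le_pCore hn hp
  have hcen : z₀ ∈ center M := by
    rw [mem_center_iff]
    intro g
    refine (commute_of_parts (fun y _ hy => ?_) (fun y _ hy => ?_)).symm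
    · obtain ⟨k, hk⟩ := hy
      have h3 : IsPGroup 2 (zpowers y) := by
        rintro ⟨_, i, rfl⟩
        exact ⟨k, Subtype.ext (by
          show (y ^ i) ^ 2 ^ k = 1
          rw [← zpow_natCast, ← zpow_mul, mul_comm, zpow_mul, zpow_natCast, hk, one_zpow])⟩
      obtain ⟨T, hT⟩ := h3.exists_le_sylow
      obtain ⟨g, rfl⟩ := MulAction.exists_smul_eq M P T
      have h4 : z₀ ∈ ((g • P : Sylow 2 M) : Subgroup M) :=
        (hle.trans (Cfsg.Agent.Lib.Cores.pCore_le_sylow _)) hq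
      have h5 := hT (mem_zpowers y)
      obtain ⟨a, ha, ha'⟩ := h4
      obtain ⟨b, hb, hb'⟩ := h5
      have ha2 : z₀ = g * a * g⁻¹ := ha'.symm
      have hb2 : y = g * b * g⁻¹ := hb'.symm
      rw [ha2, hb2]
      calc g * a * g⁻¹ * (g * b * g⁻¹) = g * (a * b) * g⁻¹ := by group
        _ = g * (b * a) * g⁻¹ := by rw [hP a ha b hb]
        _ = g * b * g⁻¹ * (g * a * g⁻¹) := by group
    · exact hodd' z₀ hq y _ hy (pow_orderOf_eq_one y)
  rw [mem_bot]
  exact (QuotientGroup.eq_one_iff z₀).2 hcen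

/-- `O(M / Z(M)) = 1`. -/
theorem core_quot (N : Subgroup (M ⧸ center M)) (hN : N.Normal) (hodd : Odd (Nat.card N)) : N = ⊥ := by
  set f := QuotientGroup.mk' (center M) with hf
  have hsurj : Function.Surjective f := QuotientGroup.mk'_surjective _
  set R := N.comap f with hR
  have hRn : R.Normal := inferInstance
  have hle : center M ≤ R := by
    intro z hz
    rw [hR, mem_comap]
    have h1 : f z = 1 := (QuotientGroup.eq_one_iff z).2 hz
    rw [h1]; exact one_mem _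
  have hidx : Odd ((center M).subgroupOf R).index := by
    have h1 : ((center M).subgroupOf R).index = (center M).relIndex R := rfl
    have h3 : (center M) = (⊥ : Subgroup (M ⧸ center M)).comap f := by
      rw [MonoidHom.comap_bot, hf, QuotientGroup.ker_mk']
    have h4 : (center M).relIndex R = Nat.card N := by
      conv_lhs => rw [h3]
      rw [relIndex_comap, hR, map_comap_eq_self_of_surjective hsurj, relIndex_bot_left]
    rw [h1, h4]; exact hodd
  obtain ⟨X, hX, hXm, hdec⟩ := odd_part ((center M).subgroupOf R)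
    (by
      rintro ⟨z, hzR⟩ hz
      rw [mem_center_iff]
      intro g
      exact Subtype.ext (mem_center_iff.1 (mem_subgroupOf.1 hz) g))
    (by
      rintro ⟨⟨z, hzR⟩, hz⟩
      obtain ⟨k, hk⟩ := pow_of_central hO (mem_subgroupOf.1 hz)
      exact ⟨k, Subtype.ext (Subtype.ext hk)⟩) hidx
  have hXbot : X.map R.subtype = ⊥ := by
    refine hO _ ⟨?_⟩ ?_
    · rintro _ ⟨x, hx, rfl⟩ g
      refine ⟨⟨g * x * g⁻¹, hRn.conj_mem x x.2 g⟩, ?_, rfl⟩
      refine (hXm _).2 ?_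
      rw [Subgroup.orderOf_mk]
      have h1 : orderOf (g * (x : M) * g⁻¹) = orderOf (x : M) := by
        have := (MulAut.conj g).orderOf_eq (x : M)
        rwa [MulAut.conj_apply] at this
      rw [h1, Subgroup.orderOf_coe]
      exact (hXm _).1 hx
    · rw [Nat.card_congr (X.equivMapOfInjective _ R.subtype_injective).toEquiv.symm]
      exact hX
  rw [eq_bot_iff]
  intro q hq
  obtain ⟨r, rfl⟩ := hsurj q
  obtain ⟨z, hz, x, hx, hr⟩ := hdec ⟨r, hq⟩
  have h1 : (x : M) ∈ X.map R.subtype := ⟨x, hx, rfl⟩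
  rw [hXbot, mem_bot] at h1
  have h3 : r = z * x := congrArg Subtype.val hr
  rw [h1, mul_one] at h3
  rw [mem_bot, h3]
  exact (QuotientGroup.eq_one_iff _).2 (mem_subgroupOf.1 hz)

end

/-- the action of the automorphism group on the quotient by the centre -/
def autQ {M : Type*} [Group M] : MulAut M →* MulAut (M ⧸ center M) where
  toFun α := QuotientGroup.congr (center M) (center M) α (by
    exact Subgroup.characteristic_iff_map_eq.1 inferInstance α)
  map_one' := by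
    ext q
    obtain ⟨m, rfl⟩ := QuotientGroup.mk_surjective q
    rfl
  map_mul' α β := by
    ext q
    obtain ⟨m, rfl⟩ := QuotientGroup.mk_surjective q
    rfl

theorem autQ_mk {M : Type*} [Group M] (α : MulAut M) (m : M) :
    autQ α (m : M ⧸ center M) = ((α m : M) : M ⧸ center M) := rfl

section

variable {G : Type*} [Group G] [Finite G] (M : Subgroup G) [hMn : M.Normal]
  (hO : ∀ N : Subgroup M, N.Normal → Odd (Nat.card N) → N = ⊥)
  (P : Subgroup G) (hPM : P ≤ M) (hP2 : IsPGroup 2 P) (hPodd : Odd (P.relIndex M))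
  (hPab : ∀ a ∈ P, ∀ b ∈ P, a * b = b * a)

include hO hPM hP2 hPodd hPab

/-- `[x, s]` centralizes `M / Z(M)`. -/
theorem mod_center {x s : G} {n : ℕ} (hs : s ^ 2 ^ n = 1) (hsP : ∀ p ∈ P, s * p = p * s)
    (hxP : ∀ p ∈ P, x * p = p * x) (m : M) :
    (⟨(x * s * x⁻¹ * s⁻¹) * m * (x * s * x⁻¹ * s⁻¹)⁻¹ * (m : G)⁻¹,
      M.mul_mem (hMn.conj_mem m m.2 _) (M.inv_mem m.2)⟩ : M) ∈ center M := by
  have h2 : Fact (Nat.Prime 2) := ⟨Nat.prime_two⟩
  -- `P` as a Sylow subgroup of `M`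
  have hPM2 : IsPGroup 2 (P.subgroupOf M) := hP2.comap_subtype
  have hidx : ¬ 2 ∣ (P.subgroupOf M).index := by
    have h1 : (P.subgroupOf M).index = P.relIndex M := rfl
    rw [h1, ← even_iff_two_dvd, Nat.not_even_iff_odd]
    exact hPodd
  let S : Sylow 2 M := hPM2.toSylow hidx
  have hSP : (S : Subgroup M) = P.subgroupOf M := rfl
  have hSab : ∀ x ∈ (S : Subgroup M), ∀ y ∈ (S : Subgroup M), x * y = y * x := by
    intro x hx y hy
    exact Subtype.ext (hPab _ hx _ hy)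
  let f := QuotientGroup.mk' (center M)
  have hsurj : Function.Surjective f := QuotientGroup.mk'_surjective _
  let S' : Sylow 2 (M ⧸ center M) := S.mapSurjective (f := f) hsurj
  have hS' : (S' : Subgroup (M ⧸ center M)) = (S : Subgroup M).map f := rfl
  let ψ : G →* MulAut (M ⧸ center M) := autQ.comp MulAut.conjNormal
  have hψ : ∀ (g : G) (m : M), ψ g (m : M ⧸ center M) =
      ((⟨g * m * g⁻¹, hMn.conj_mem m m.2 g⟩ : M) : M ⧸ center M) := fun g m => rfl
  obtain ⟨v, hv, hvc⟩ := Cfsg.Agent.H628.AbelAutGen.eq_conj (center_quot hO S hSab) (core_quot hO) S'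
    (by
      rintro _ ⟨a, ha, rfl⟩ _ ⟨b, hb, rfl⟩
      rw [← map_mul, ← map_mul, hSab a ha b hb])
    (ψ s)
    (by
      rintro ⟨_, i, rfl⟩
      refine ⟨n, Subtype.ext ?_⟩
      show (ψ s ^ i) ^ 2 ^ n = 1
      rw [← zpow_natCast, ← zpow_mul, mul_comm, zpow_mul, zpow_natCast, ← map_pow, hs, map_one, one_zpow])
    (by
      rintro _ ⟨a, ha, rfl⟩
      show ψ s (a : M ⧸ center M) = (a : M ⧸ center M)
      rw [hψ]
      congr 1
      apply Subtype.ext
      show s * a * s⁻¹ = a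
      rw [hsP (a : G) ha, mul_inv_cancel_right])
  obtain ⟨w, hw, rfl⟩ := hv
  have hwP : (w : G) ∈ P := hw
  have h3 : ψ s = ψ (w : G) := by
    ext q
    obtain ⟨m, rfl⟩ := QuotientGroup.mk_surjective q
    rw [hvc, hψ]
    rfl
  have h4 : ψ (x * s * x⁻¹ * s⁻¹) = 1 := by
    rw [map_mul, map_mul, map_mul, map_inv, map_inv, h3, ← map_inv, ← map_inv, ← map_mul, ← map_mul, ← map_mul,
      hxP _ hwP, mul_inv_cancel_right, mul_inv_cancel, map_one]
  have h5 := DFunLike.congr_fun h4 (m : M ⧸ center M)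
  rw [hψ, MulAut.one_apply, QuotientGroup.eq] at h5
  have hcn : (center M).Normal := inferInstance
  have h6 := hcn.conj_mem _ (inv_mem h5) m
  convert h6 using 1
  apply Subtype.ext
  show (x * s * x⁻¹ * s⁻¹) * m * (x * s * x⁻¹ * s⁻¹)⁻¹ * (m : G)⁻¹ =
    m * (((x * s * x⁻¹ * s⁻¹) * m * (x * s * x⁻¹ * s⁻¹)⁻¹)⁻¹ * m)⁻¹ * (m : G)⁻¹
  group

/-- If the commutator has odd order then it centralizes `M`. -/
theorem centralizes {x s : G} {n : ℕ} (hs : s ^ 2 ^ n = 1) (hsP : ∀ p ∈ P, s * p = p * s)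
    (hxP : ∀ p ∈ P, x * p = p * x) {c : G} (hc : c = x * s * x⁻¹ * s⁻¹) (hodd : Odd (orderOf c)) :
    ∀ m ∈ M, c * m = m * c := by
  have h2 : Fact (Nat.Prime 2) := ⟨Nat.prime_two⟩
  intro m hm
  have h1 := mod_center M hO P hPM hP2 hPodd hPab hs hsP hxP ⟨m, hm⟩
  simp only [← hc] at h1
  set u : M := ⟨c * m * c⁻¹ * m⁻¹, M.mul_mem (hMn.conj_mem m hm _) (M.inv_mem hm)⟩ with hu
  -- `Z(M) ≤ P`
  have hZP : ∀ z ∈ center M, (z : G) ∈ P := by
    have hidx : ¬ 2 ∣ (P.subgroupOf M).index := by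
      have h1 : (P.subgroupOf M).index = P.relIndex M := rfl
      rw [h1, ← even_iff_two_dvd, Nat.not_even_iff_odd]
      exact hPodd
    have hPM2 : IsPGroup 2 (P.subgroupOf M) := hP2.comap_subtype
    let S : Sylow 2 M := hPM2.toSylow hidx
    have h3 : center M ≤ (S : Subgroup M) :=
      (Cfsg.Agent.Lib.Cores.le_pCore inferInstance (isPGroup_center hO)).trans
        (Cfsg.Agent.Lib.Cores.pCore_le_sylow S)
    exact fun z hz => h3 hz
  have huP := hZP u h1
  have hcP : ∀ p ∈ P, Commute c p := by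
    intro p hp
    rw [hc]
    have c1 : Commute x p := hxP p hp
    have c2 : Commute s p := hsP p hp
    exact ((c1.mul_left c2).mul_left c1.inv_left).mul_left c2.inv_left
  have hcu : Commute (u : G)⁻¹ c := (hcP _ (inv_mem huP)).symm
  have h3 : m * c * m⁻¹ = (u : G)⁻¹ * c := by
    rw [hu]
    show m * c * m⁻¹ = (c * m * c⁻¹ * m⁻¹)⁻¹ * c
    group
  have h4 : (m * c * m⁻¹) ^ orderOf c = 1 := by rw [conj_pow, pow_orderOf_eq_one, mul_one, mul_inv_cancel]
  rw [h3, hcu.mul_pow, pow_orderOf_eq_one, mul_one] at h4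
  obtain ⟨k, hk⟩ := pow_of_central hO h1
  have hk' : (u : G) ^ 2 ^ k = 1 := congrArg Subtype.val hk
  have h5 : (u : G)⁻¹ = 1 := eq_one_of_odd (k := k) (by rw [inv_pow, hk', inv_one]) hodd h4
  rw [h5, one_mul, mul_inv_eq_iff_eq_mul] at h3
  exact h3.symm

end

end Cfsg.Agent.H997.ScPairCen
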